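import Mathlib
import Cfsg.Prelude.Def_Sporadic
import Cfsg.Prelude.Def_Classical
import Cfsg.Agent.JankoThree.Simple
import Cfsg.Agent.JankoThree.Unitary

/-! `3·J₃` inside `SU₉(2)`. -/

set_option autoImplicit false

namespace CfsgLib.JankoThree

open Cfsg
open scoped Matrix

/-- positions as an equivalence -/
def posEquiv : Spor.F9 ≃ Fin 9 where
  toFun z := ⟨ix z, ix_lt z⟩
  invFun i := zOf i
  left_inv := zOf_ix
  right_inv i := Fin.ext (ix_zOf i i.2)

theorem exists_omega (F : Type*) [Field F] [Fintype F] (hF : Fintype.card F = 4) :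
    ∃ ω : F, ω ^ 2 + ω + 1 = 0 := by
  classical
  obtain ⟨x, hx⟩ : ∃ x : F, x ∉ ({0, 1} : Finset F) := by
    by_contra! h
    have := Finset.card_le_card (show (Finset.univ : Finset F) ⊆ {0, 1} from fun x _ => h x)
    rw [Finset.card_univ, hF] at this
    have := Finset.card_le_two (a := (0 : F)) (b := 1)
    omega
  simp only [Finset.mem_insert, Finset.mem_singleton, not_or] at hx
  have h3 : x ^ 3 = 1 := by
    have := FiniteField.pow_card_sub_one_eq_one x hx.1
    rwa [hF] at this
  refine ⟨x, mul_left_cancel₀ (sub_ne_zero.2 hx.2) ?_⟩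
  linear_combination h3

theorem reindex_mul {F : Type*} [Field F] (A B : Matrix Spor.F9 Spor.F9 F) :
    Matrix.reindex posEquiv posEquiv (A * B) =
      Matrix.reindex posEquiv posEquiv A * Matrix.reindex posEquiv posEquiv B := by
  simp only [Matrix.reindex_apply]
  rw [Matrix.submatrix_mul_equiv]

variable {F : Type*} [Field F] [Fintype F] {ω : F}
variable (hF : Fintype.card F = 4) (hω : ω ^ 2 + ω + 1 = 0)
include hF hω

theorem det_eq_one {g : GL Spor.F9 F} (hg : g ∈ Spor.threeJ3 F ω) :
    (g : Matrix Spor.F9 Spor.F9 F).det = 1 := by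
  have hgen : ∀ i, 1 ≤ i → i < 7 →
      (gE ω i : Matrix Spor.F9 Spor.F9 F).det = 1 := by
    intro i h1 h7
    obtain ⟨u, v, hu, hv, e⟩ := nineteen_split hF hω h7 (by omega)
    have key : ∀ x : Spor.threeJ3 F ω, orderOf x = 19 →
        ((x : GL Spor.F9 F) : Matrix Spor.F9 Spor.F9 F).det = 1 := by
      intro x hx
      set d := Matrix.GeneralLinearGroup.det (x : GL Spor.F9 F) with hd
      have h19 : d ^ 19 = 1 := by
        have hx' := pow_orderOf_eq_one x
        rw [hx] at hx'
        rw [hd, ← map_pow, ← SubgroupClass.coe_pow, hx', OneMemClass.coe_one, map_one]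
      have h3 : d ^ 3 = 1 := Units.ext (by
        rw [Units.val_pow_eq_pow_val]
        have := FiniteField.pow_card_sub_one_eq_one _ d.ne_zero
        rwa [hF] at this)
      have : d = 1 := by simpa using pow_gcd_eq_one.2 ⟨h19, h3⟩
      rw [hd] at this
      rw [← Matrix.GeneralLinearGroup.val_det_apply, this, Units.val_one]
    have e' : gE ω i = (u : GL Spor.F9 F) * (v : GL Spor.F9 F) := congrArg Subtype.val e
    rw [e', Units.val_mul, Matrix.det_mul, key u hu, key v hv, one_mul]
  rw [threeJ3_eq_closure hF hω] at hg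
  induction hg using Subgroup.closure_induction with
  | mem x hx =>
    obtain ⟨i, rfl⟩ := hx
    rcases Nat.eq_zero_or_pos i with h | h
    · have e : gE ω (i : ℕ) = gW ω scWord := by
        rw [h]; exact (rep_gE hF hω 0).eq (eqM_eq small_checks.2.2.2.2.2.2 ▸ rep_gW hF hω scWord)
      show (gE ω (i : ℕ) : Matrix Spor.F9 Spor.F9 F).det = 1
      rw [e]
      have hw : ∀ j ∈ scWord, 1 ≤ j ∧ j < 7 := by decide
      generalize scWord = w at hw
      induction w with
      | nil => simp [gW]
      | cons j w ih =>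
        rw [gW, List.map_cons, List.prod_cons, Units.val_mul, Matrix.det_mul,
          hgen j (hw j (by simp)).1 (hw j (by simp)).2, one_mul]
        exact ih fun a ha => hw a (List.mem_cons_of_mem _ ha)
    · exact hgen i h i.2
  | one => simp
  | mul a b _ _ ha hb => rw [Units.val_mul, Matrix.det_mul, ha, hb, one_mul]
  | inv a _ ha =>
    have : (a : Matrix Spor.F9 Spor.F9 F).det * (↑a⁻¹ : Matrix Spor.F9 Spor.F9 F).det = 1 := by
      rw [← Matrix.det_mul, ← Units.val_mul, mul_inv_cancel, Units.val_one, Matrix.det_one]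
    rwa [ha, one_mul] at this

theorem exists_hom_SU : ∃ f : Spor.threeJ3 F ω →* Cfsg.SU 9 F 2, Function.Injective f := by
  have hdet : ∀ g : Spor.threeJ3 F ω,
      (Matrix.reindex posEquiv posEquiv ((g : GL Spor.F9 F) : Matrix Spor.F9 Spor.F9 F)).det = 1 :=
    fun g => by rw [Matrix.det_reindex_self]; exact det_eq_one hF hω g.2
  let φ : Spor.threeJ3 F ω →* Matrix.SpecialLinearGroup (Fin 9) F :=
    { toFun := fun g => ⟨Matrix.reindex posEquiv posEquiv
        ((g : GL Spor.F9 F) : Matrix Spor.F9 Spor.F9 F), hdet g⟩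
      map_one' := by
        apply Subtype.ext
        simp
      map_mul' := fun a b => by
        apply Subtype.ext
        exact reindex_mul _ _ }
  have hmem : ∀ g, φ g ∈ Cfsg.SU 9 F 2 := by
    intro g u v
    show hermForm 9 F 2 ((Matrix.reindex posEquiv posEquiv _) *ᵥ u)
      ((Matrix.reindex posEquiv posEquiv _) *ᵥ v) = hermForm 9 F 2 u v
    rw [Matrix.reindex_apply, Matrix.submatrix_mulVec_equiv, Matrix.submatrix_mulVec_equiv]
    have h := presForm hF hω g.2 (u ∘ posEquiv) (v ∘ posEquiv)
    simp only [hermForm, Equiv.symm_symm]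
    refine (Fintype.sum_equiv posEquiv.symm _ _ fun i => rfl).trans (h.trans ?_)
    exact Fintype.sum_equiv posEquiv _ _ fun z => rfl
  refine ⟨φ.codRestrict _ hmem, fun a b e => ?_⟩
  have e' : φ a = φ b := congrArg Subtype.val e
  exact Subtype.ext (Units.ext ((Matrix.reindex posEquiv posEquiv).injective
    (congrArg Subtype.val e')))

theorem cover_in_SU : ∃ H : Subgroup (Cfsg.SU 9 F 2),
    Nat.card (Subgroup.center H) = 3 ∧ Cfsg.IsJ3 (H ⧸ Subgroup.center H) := by
  obtain ⟨f, hf⟩ := exists_hom_SU hF hω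
  let e : Spor.threeJ3 F ω ≃* f.range := MonoidHom.ofInjective hf
  have hc : (Subgroup.center (Spor.threeJ3 F ω)).map e.toMonoidHom = Subgroup.center f.range := by
    ext y
    rw [Subgroup.mem_map, Subgroup.mem_center_iff]
    constructor
    · rintro ⟨x, hx, rfl⟩ z
      obtain ⟨w, rfl⟩ := e.surjective z
      show e w * e x = e x * e w
      rw [← map_mul, ← map_mul, Subgroup.mem_center_iff.1 hx w]
    · intro h
      obtain ⟨x, rfl⟩ := e.surjective y
      exact ⟨x, Subgroup.mem_center_iff.2 fun w => e.injective (by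
        rw [map_mul, map_mul]; exact h (e w)), rfl⟩
  let q := QuotientGroup.congr (Subgroup.center (Spor.threeJ3 F ω)) (Subgroup.center f.range) e hc
  refine ⟨f.range, ?_, ?_, ?_⟩
  · rw [← hc]
    refine Eq.trans ?_ (card_center hF hω)
    exact Nat.card_congr (Subgroup.equivMapOfInjective _ e.toMonoidHom e.injective).symm.toEquiv
  · haveI := isSimple_J3 hF hω
    exact q.isSimpleGroup_congr.1 this
  · rw [← Nat.card_congr q.toEquiv]
    exact card_J3 hF hω

end CfsgLib.JankoThree
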