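import Mathlib
import Cfsg.Prelude.Def_Sporadic
import Cfsg.Agent.JankoThree.Subgroup

/-! `J₃` as a permutation group of degree 6156. -/

set_option autoImplicit false

namespace CfsgLib.JankoThree

open Cfsg
open scoped Matrix

variable {F : Type*} [Field F] [Fintype F] {ω : F}
variable (hF : Fintype.card F = 4) (hω : ω ^ 2 + ω + 1 = 0)
include hF hω

theorem permutation_realization : ∃ H : Subgroup (Equiv.Perm (Fin 6156)), Cfsg.IsJ3 H ∧
    MulAction.IsPretransitive H (Fin 6156) ∧
      Nat.card (MulAction.stabilizer H (0 : Fin 6156)) = 8160 := by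
  classical
  let G := Spor.threeJ3 F ω
  let M : Subgroup G := (mGrp ω).subgroupOf G
  have hMc : Nat.card M = 24480 :=
    (Nat.card_congr (Subgroup.subgroupOfEquivOfLe (mGrp_le hF hω)).toEquiv).trans
      (card_mGrp hF hω)
  have hidx : M.index = 6156 := by
    have h := M.card_mul_index
    rw [hMc, card_threeJ3 hF hω] at h
    omega
  let e0 : G ⧸ M ≃ Fin 6156 := Finite.equivFinOfCardEq hidx
  let e : G ⧸ M ≃ Fin 6156 := e0.trans (Equiv.swap (e0 ((1 : G) : G ⧸ M)) 0)
  have he : e ((1 : G) : G ⧸ M) = 0 := by simp [e]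
  let ψ : G →* Equiv.Perm (Fin 6156) :=
    e.permCongrHom.toMonoidHom.comp (MulAction.toPermHom G (G ⧸ M))
  have hψ : ∀ g q, ψ g (e q) = e (g • q) := fun g q => by
    show e.permCongr (MulAction.toPerm g) (e q) = _
    rw [Equiv.permCongr_apply, Equiv.symm_apply_apply, MulAction.toPerm_apply]
  have hker : ψ.ker = Subgroup.center G := by
    have hker' : ∀ g, g ∈ ψ.ker ↔ ∀ q : G ⧸ M, g • q = q := fun g => by
      rw [MonoidHom.mem_ker]
      constructor
      · intro h q
        apply e.injective
        rw [← hψ, h]; rfl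
      · intro h
        refine Equiv.ext fun i => ?_
        obtain ⟨q, rfl⟩ := e.surjective i
        rw [hψ, h]; rfl
    have hge : Subgroup.center G ≤ ψ.ker := by
      intro z hz
      rw [hker']
      intro q
      induction q using QuotientGroup.induction_on with
      | H x =>
        rw [MulAction.Quotient.smul_mk, smul_eq_mul, ← Subgroup.mem_center_iff.1 hz x,
          QuotientGroup.eq, mul_inv_rev, mul_assoc, inv_mul_cancel, mul_one]
        refine inv_mem (show z ∈ M from ?_)
        obtain ⟨c, hc, ec⟩ := (mem_center_iff hF hω).1 hz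
        show (z : GL Spor.F9 F) ∈ mGrp ω
        have hp : ∀ n : ℕ, c = ω ^ n → (z : GL Spor.F9 F) = gE ω 0 ^ n := fun n hn =>
          Units.ext (by rw [ec, Units.val_pow_eq_pow_val, gE_zero_eq hF hω, smul_pow, one_pow, hn])
        rcases eq_pow_omega hF hω hc with h | h | h
        · rw [hp 0 (by rw [h, pow_zero])]; exact pow_mem (mScalar_mem hF hω) 0
        · rw [hp 1 (by rw [h, pow_one])]; exact pow_mem (mScalar_mem hF hω) 1
        · rw [hp 2 h]; exact pow_mem (mScalar_mem hF hω) 2
    refine le_antisymm ?_ hge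
    by_contra hne
    have htop := normal_eq_top hF hω hne
    have hM : M = ⊤ := eq_top_iff.2 fun g _ => by
      have h := (hker' g).1 (htop ▸ Subgroup.mem_top g) ((1 : G) : G ⧸ M)
      rw [MulAction.Quotient.smul_mk, smul_eq_mul, mul_one] at h
      simpa using QuotientGroup.eq.1 h.symm
    rw [hM, Subgroup.index_top] at hidx
    norm_num at hidx
  have iso : Spor.J3 F ω ≃* ψ.range :=
    (QuotientGroup.quotientMulEquivOfEq hker.symm).trans (QuotientGroup.quotientKerEquivRange ψ)
  have hcard : Nat.card ψ.range = 50232960 := by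
    rw [← Nat.card_congr iso.toEquiv]; exact card_J3 hF hω
  have htrans : MulAction.IsPretransitive ψ.range (Fin 6156) := by
    refine ⟨fun a b => ?_⟩
    obtain ⟨p, rfl⟩ := e.surjective a
    obtain ⟨q, rfl⟩ := e.surjective b
    obtain ⟨g, hg⟩ := MulAction.exists_smul_eq G p q
    exact ⟨⟨ψ g, g, rfl⟩, by show ψ g (e p) = e q; rw [hψ, hg]⟩
  refine ⟨ψ.range, ⟨?_, hcard⟩, htrans, ?_⟩
  · haveI := isSimple_J3 hF hω
    exact iso.isSimpleGroup_congr.1 this
  · have h := (MulAction.stabilizer ψ.range (0 : Fin 6156)).card_mul_index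
    rw [MulAction.index_stabilizer_of_transitive, Nat.card_fin, hcard] at h
    omega

end CfsgLib.JankoThree
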